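import Cfsg.Agent.H916.LowNondeg

/-!
Maximality in `E Q = Ω(Q)` of the stabiliser of a nondegenerate 4-space in an 8-dimensional space of minus type,
over the field with two elements (one of the two complementary 4-spaces has plus type, the other minus type).
-/

set_option autoImplicit false

namespace Cfsg.Agent.H179.FourTwo

open QuadraticMap hiding proj
open Cfsg.Agent.LieClassical.OrthCore Cfsg.Agent.LieClassical.OrthTrans
  Cfsg.Agent.LieClassical.OrthFinite Cfsg.Agent.LieClassical.OrthSimple Cfsg.Agent.H885.RootT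
  Cfsg.Agent.H885.Irr Cfsg.Agent.H885.Nondeg Cfsg.Agent.H883.Bridge Cfsg.Agent.H916.LowNondeg

variable {F V : Type*} [Field F] [AddCommGroup V] [Module F V] {Q : QuadraticForm F V}
  {W U : Submodule F V} {M : Subgroup (V ≃ₗ[F] V)}

/-- `a, c` span a totally singular line. -/
structure Line (Q : QuadraticForm F V) (a c : V) : Prop where
  left : Q a = 0
  right : Q c = 0
  perp : polar Q a c = 0
  indep : LinearIndependent F ![a, c]

theorem Line.left_ne {a c : V} (h : Line Q a c) : a ≠ 0 := by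
  simpa using h.indep.ne_zero 0

theorem Line.right_ne {a c : V} (h : Line Q a c) : c ≠ 0 := by
  simpa using h.indep.ne_zero 1

theorem Line.sum_ne {a c : V} (h : Line Q a c) : a + c ≠ 0 := by
  intro h0
  have := LinearIndependent.pair_iff.1 h.indep 1 1 (by rw [one_smul, one_smul]; exact h0)
  exact one_ne_zero this.1

theorem Line.sing {a c : V} (h : Line Q a c) (s t : F) : Q (s • a + t • c) = 0 := by
  rw [Q_add, QuadraticMap.map_smul, QuadraticMap.map_smul, polar_smul_left, polar_smul_right, h.left, h.right,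
    h.perp]
  simp

/-- Every singular vector of `U` is orthogonal to a totally singular line of `U`. -/
theorem exists_line {l₁ l₂ : V} (hl₁ : l₁ ∈ U) (hl₂ : l₂ ∈ U) (hl : Line Q l₁ l₂) {u : V} (hu : u ∈ U)
    (hQu : Q u = 0) : ∃ a ∈ U, ∃ c ∈ U, Line Q a c ∧ polar Q a u = 0 ∧ polar Q c u = 0 := by
  by_cases hm : ∃ s t : F, u = s • l₁ + t • l₂
  · obtain ⟨s, t, rfl⟩ := hm
    refine ⟨l₁, hl₁, l₂, hl₂, hl, ?_, ?_⟩
    · rw [polar_add_right, polar_smul_right, polar_smul_right, polar_self_of_sing hl.left, hl.perp]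
      simp
    · rw [polar_add_right, polar_smul_right, polar_smul_right, polar_comm Q l₂ l₁,
        polar_self_of_sing hl.right, hl.perp]
      simp
  · push Not at hm
    have key : ∀ s t : F, (s ≠ 0 ∨ t ≠ 0) → polar Q u (s • l₁ + t • l₂) = 0 →
        ∃ a ∈ U, ∃ c ∈ U, Line Q a c ∧ polar Q a u = 0 ∧ polar Q c u = 0 := by
      intro s t hst h0
      refine ⟨u, hu, s • l₁ + t • l₂, U.add_mem (U.smul_mem _ hl₁) (U.smul_mem _ hl₂),
        ⟨hQu, hl.sing s t, h0, ?_⟩, polar_self_of_sing hQu, by rw [polar_comm]; exact h0⟩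
      rw [LinearIndependent.pair_iff]
      intro x y hxy
      have hx : x = 0 := by
        by_contra hx
        apply hm (-(x⁻¹ * y * s)) (-(x⁻¹ * y * t))
        have : u = x⁻¹ • (x • u) := by rw [smul_smul, inv_mul_cancel₀ hx, one_smul]
        rw [this, eq_neg_of_add_eq_zero_left hxy]
        module
      refine ⟨hx, ?_⟩
      rw [hx, zero_smul, zero_add] at hxy
      rcases smul_eq_zero.1 hxy with h | h
      · exact h
      · exfalso
        have h2 := LinearIndependent.pair_iff.1 hl.indep s t h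
        rcases hst with h3 | h3
        · exact h3 h2.1
        · exact h3 h2.2
    by_cases h1 : polar Q u l₁ = 0
    · exact key 1 0 (Or.inl one_ne_zero) (by rw [one_smul, zero_smul, add_zero]; exact h1)
    · refine key (polar Q u l₂) (-(polar Q u l₁)) (Or.inr (neg_ne_zero.2 h1)) ?_
      rw [polar_add_right, polar_smul_right, polar_smul_right]
      simp only [smul_eq_mul]
      ring

/-- **Uniqueness**: `g ∈ M` mapping a nonzero singular vector of `U` into `U` preserves `U`. -/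
theorem map_le (S : Setup Q W U M) [Module.Finite F V] {l₁ l₂ : V} (hl₁ : l₁ ∈ U) (hl₂ : l₂ ∈ U)
    (hl : Line Q l₁ l₂) {g : V ≃ₗ[F] V} (hg : g ∈ M) {p : V} (hp : p ∈ U) (hp0 : p ≠ 0) (hQp : Q p = 0)
    (hgp : g p ∈ U) {v : V} (hv : v ∈ U) : g v ∈ U := by
  have hUn : NdOn Q U := S.split.ndOn_right S.nondeg
  have hgO := S.hMO hg
  have step : ∀ p ∈ U, p ≠ 0 → Q p = 0 → g p ∈ U → ∀ v ∈ U, polar Q p v = 0 → g v ∈ U := by
    intro p hp hp0 hQp hgp v hv hpv
    have hQgp : Q (g p) = 0 := by rw [mem_O.1 hgO]; exact hQp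
    have h1 := T_conj hg hgO (S.mem_T hQp hp hv hpv) hQgp
    exact S.mem_U hQgp hgp (fun h0 => hp0 (by simpa using h0)) h1
  obtain ⟨a, ha, c, hc, hac, hap, hcp⟩ := exists_line hl₁ hl₂ hl hp hQp
  -- a singular vector orthogonal to `p`, not a multiple of it
  obtain ⟨d, hd, hQd, hpd, hdp⟩ : ∃ d ∈ U, Q d = 0 ∧ polar Q p d = 0 ∧ ∀ k : F, d ≠ k • p := by
    by_cases h1 : ∃ k : F, a = k • p
    · obtain ⟨k, hk⟩ := h1
      refine ⟨c, hc, hac.right, by rw [polar_comm]; exact hcp, ?_⟩
      rintro k' rfl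
      have hk0 : k ≠ 0 := by
        rintro rfl
        rw [zero_smul] at hk
        exact hac.left_ne hk
      have h2 := LinearIndependent.pair_iff.1 hac.indep k' (-k) (by
        rw [hk, smul_smul, smul_smul, ← add_smul]
        rw [show k' * k + -k * k' = 0 by ring, zero_smul])
      exact hk0 (neg_eq_zero.1 h2.2)
    · push Not at h1
      exact ⟨a, ha, hac.left, by rw [polar_comm]; exact hap, h1⟩
  have hd0 : d ≠ 0 := by
    have := hdp 0
    rwa [zero_smul] at this
  have hgd : g d ∈ U := step p hp hp0 hQp hgp d hd hpd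
  by_contra hgv
  obtain ⟨k, hk⟩ := eq_smul_of_perp hUn hp hp0 hQp hd fun b hb hpb => by
    by_contra hdb
    apply hgv
    have h1 : g b ∈ U := step p hp hp0 hQp hgp b hb hpb
    have h2 := step d hd hd0 hQd hgd (v - ((polar Q d b)⁻¹ * polar Q d v) • b)
      (U.sub_mem hv (U.smul_mem _ hb)) (by
        rw [polar_sub_right, polar_smul_right, smul_eq_mul]
        field_simp
        ring)
    rw [map_sub, map_smul] at h2
    have h3 := U.add_mem h2 (U.smul_mem ((polar Q d b)⁻¹ * polar Q d v) h1)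
    rwa [sub_add_cancel] at h3
  exact hdp k hk

/-- An element of `M` moving `U` maps no nonzero singular vector of `U` to a vector orthogonal to a totally
singular line of `U`. -/
theorem not_perp_line (S : Setup Q W U M) [Module.Finite F V]
    (hW : ∀ a ∈ W, ∀ c ∈ W, ¬ Line Q a c) {g : V ≃ₗ[F] V} (hg : g ∈ M)
    {v : V} (hv : v ∈ U) (hgv : g v ∉ U) {x : V} (hx : x ∈ U) (hx0 : x ≠ 0) (hQx : Q x = 0)
    {a c : V} (ha : a ∈ U) (hc : c ∈ U) (hac : Line Q a c) (h1 : polar Q a (g x) = 0)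
    (h2 : polar Q c (g x) = 0) : False := by
  have hgO := S.hMO hg
  have hgO' : g⁻¹ ∈ O Q := (O Q).inv_mem hgO
  have hs := (S.split.SM_right ha hc hac.left hac.perp).mem hac.left hac.perp
  set s := siegel Q a c hac.left hac.perp with hsdef
  have hsM : s ∈ M := S.hM hs
  have hsx : s (g x) = g x := by
    rw [hsdef, siegel_apply, h1, h2]
    simp
  -- `g⁻¹ s g` fixes `x`
  have hm : g⁻¹ * s * g ∈ M := M.mul_mem (M.mul_mem (M.inv_mem hg) hsM) hg
  have hgi : ∀ z, g⁻¹ (g z) = z := fun z => LinearEquiv.symm_apply_apply g z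
  have hgi' : ∀ z, g (g⁻¹ z) = z := fun z => LinearEquiv.apply_symm_apply g z
  have hmx : (g⁻¹ * s * g) x ∈ U := by
    show g⁻¹ (s (g x)) ∈ U
    rw [hsx, hgi]
    exact hx
  have hzero : ∀ y ∈ U, polar Q a (g y) • c - polar Q c (g y) • a = 0 := by
    intro y hy
    have h3 : g⁻¹ (s (g y)) ∈ U := map_le S ha hc hac hm hx hx0 hQx hmx hy
    have e : s (g y) = g y + (polar Q a (g y) • c - polar Q c (g y) • a) := by
      rw [hsdef, siegel_apply, hac.right]
      module
    set t := polar Q a (g y) • c - polar Q c (g y) • a with ht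
    have htU : t ∈ U := U.sub_mem (U.smul_mem _ hc) (U.smul_mem _ ha)
    have h4 : g⁻¹ t ∈ U := by
      rw [e, map_add, hgi] at h3
      have := U.sub_mem h3 hy
      rwa [add_sub_cancel_left] at this
    by_contra ht0
    have hQt : Q t = 0 := by
      rw [ht, show polar Q a (g y) • c - polar Q c (g y) • a =
        (-polar Q c (g y)) • a + polar Q a (g y) • c by module]
      exact hac.sing _ _
    apply hgv
    refine map_le S ha hc hac hg h4 (fun h0 => ht0 ?_) (by rw [mem_O.1 hgO']; exact hQt) (by rw [hgi']; exact htU) hv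
    have := hgi' t
    rw [h0, map_zero] at this
    exact this.symm
  have hperp : ∀ y ∈ U, polar Q a (g y) = 0 ∧ polar Q c (g y) = 0 := by
    intro y hy
    have h3 := LinearIndependent.pair_iff.1 hac.indep (-polar Q c (g y)) (polar Q a (g y)) (by
      rw [← hzero y hy]
      module)
    exact ⟨h3.2, neg_eq_zero.1 h3.1⟩
  have hmem : ∀ z, (∀ y ∈ U, polar Q z (g y) = 0) → g⁻¹ z ∈ W := by
    intro z hz
    rw [S.split.mem_left_iff S.nondeg]
    intro y hy
    have h3 := hz y hy
    rw [← hgi' z, polar_map hgO] at h3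
    first
      | exact h3
      | (rw [polar_comm]; exact h3)
  refine hW _ (hmem a fun y hy => (hperp y hy).1) _ (hmem c fun y hy => (hperp y hy).2)
    ⟨by rw [mem_O.1 hgO']; exact hac.left, by rw [mem_O.1 hgO']; exact hac.right,
      by rw [polar_map hgO']; exact hac.perp, ?_⟩
  rw [LinearIndependent.pair_iff]
  intro p q hpq
  rw [← map_smul, ← map_smul, ← map_add] at hpq
  exact LinearIndependent.pair_iff.1 hac.indep p q ((g⁻¹ : V ≃ₗ[F] V).injective (by rw [hpq, map_zero]))

/-- Over the field with two elements: `M` preserves `U`. -/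
theorem map_mem (hF : ∀ c : F, c = 0 ∨ c = 1) (S : Setup Q W U M) [Module.Finite F V]
    (hW4 : 4 ≤ Module.finrank F W) (hW : ∀ a ∈ W, ∀ c ∈ W, ¬ Line Q a c) {l₁ l₂ : V} (hl₁ : l₁ ∈ U) (hl₂ : l₂ ∈ U)
    (hl : Line Q l₁ l₂) {g : V ≃ₗ[F] V} (hg : g ∈ M) {v : V} (hv : v ∈ U) : g v ∈ U := by
  by_contra hgv
  have hgO := S.hMO hg
  have hgi : ∀ z, g⁻¹ (g z) = z := fun z => LinearEquiv.symm_apply_apply g z
  have hgi' : ∀ z, g (g⁻¹ z) = z := fun z => LinearEquiv.apply_symm_apply g z
  have h2 : (2 : F) = 0 := by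
    rcases hF 2 with h | h
    · exact h
    · exfalso
      have : (1 : F) + 1 = 1 := by rw [one_add_one_eq_two]; exact h
      simp at this
  have hneg : ∀ a : F, -a = a := fun a => by
    have : a + a = 0 := by rw [← two_mul, h2, zero_mul]
    exact (eq_neg_of_add_eq_zero_left this).symm
  have hone : ∀ a : F, a ≠ 0 → a = 1 := fun a ha => (hF a).resolve_left ha
  have hself : ∀ w : V, polar Q w w = 0 := fun w => by rw [polar_self, two_smul, ← two_mul, h2, zero_mul]
  -- components of singular vectors of `g U`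
  have comp : ∀ x ∈ U, x ≠ 0 → Q x = 0 → ∀ w ∈ W, ∀ u ∈ U, w + u = g x → Q w = 1 := by
    intro x hx hx0 hQx w hw u hu e
    have hu0 : Q u ≠ 0 := by
      intro hQu
      obtain ⟨a, ha, c, hc, hac, hau, hcu⟩ := exists_line hl₁ hl₂ hl hu hQu
      refine not_perp_line S hW hg hv hgv hx hx0 hQx ha hc hac ?_ ?_
      · rw [← e, polar_add_right, S.split.perp' ha hw, hau, add_zero]
      · rw [← e, polar_add_right, S.split.perp' hc hw, hcu, add_zero]
    have h3 : Q (g x) = 0 := by rw [mem_O.1 hgO]; exact hQx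
    rw [← e, Q_add, S.split.perp w hw u hu, add_zero, hone _ hu0] at h3
    rw [eq_neg_of_add_eq_zero_left h3, hneg]
  obtain ⟨w₁, hw₁, u₁, hu₁, e₁⟩ := S.split.exists_add (g l₁)
  obtain ⟨w₂, hw₂, u₂, hu₂, e₂⟩ := S.split.exists_add (g l₂)
  have q1 := comp l₁ hl₁ hl.left_ne hl.left w₁ hw₁ u₁ hu₁ e₁
  have q2 := comp l₂ hl₂ hl.right_ne hl.right w₂ hw₂ u₂ hu₂ e₂
  have q3 := comp (l₁ + l₂) (U.add_mem hl₁ hl₂) hl.sum_ne
    (by have := hl.sing 1 1; rwa [one_smul, one_smul] at this) (w₁ + w₂) (W.add_mem hw₁ hw₂) (u₁ + u₂)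
    (U.add_mem hu₁ hu₂) (by rw [map_add, ← e₁, ← e₂]; abel)
  have q12 : polar Q w₁ w₂ = 1 := by
    rw [Q_add, q1, q2] at q3
    linear_combination q3 - h2
  -- a singular vector of `W` orthogonal to `w₁, w₂`
  obtain ⟨z, hz, hz0, hQz, hz1, hz2⟩ : ∃ z ∈ W, z ≠ 0 ∧ Q z = 0 ∧ polar Q z w₁ = 0 ∧ polar Q z w₂ = 0 := by
    by_contra hcon
    push Not at hcon
    have hcon' : ∀ z ∈ W, z ≠ 0 → polar Q w₁ z = 0 → polar Q w₂ z = 0 → Q z = 1 := by
      intro z hz hz0 hz1 hz2
      apply hone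
      intro hQz
      exact hcon z hz hz0 hQz (by rw [polar_comm]; exact hz1) (by rw [polar_comm]; exact hz2)
    obtain ⟨z₁, hz₁, hz₁0, hz₁p⟩ := exists_mem_perp (Q := Q) ![w₁, w₂] W (by omega)
    have a1 : polar Q w₁ z₁ = 0 := hz₁p 0
    have a2 : polar Q w₂ z₁ = 0 := hz₁p 1
    have hz₁Q := hcon' z₁ hz₁ hz₁0 a1 a2
    -- a second vector, not orthogonal to... outside the line of `z₁`
    obtain ⟨z₂, hz₂, hz₂1, b1, b2⟩ : ∃ z₂ ∈ W, (z₂ ≠ 0 ∧ z₂ ≠ z₁) ∧ polar Q w₁ z₂ = 0 ∧ polar Q w₂ z₂ = 0 := by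
      let f : W →ₗ[F] (Fin 2 → F) := LinearMap.pi fun i => (polarBilin Q (![w₁, w₂] i)).comp W.subtype
      have e1 := LinearMap.finrank_range_add_finrank_ker f
      have e2 : Module.finrank F (LinearMap.range f) ≤ 2 := by
        refine le_trans (Submodule.finrank_le _) ?_
        rw [Module.finrank_fin_fun]
      have e3 : ∃ k ∈ LinearMap.ker f, k ∉ Submodule.span F {(⟨z₁, hz₁⟩ : W)} := by
        by_contra hcon2
        push Not at hcon2
        have e4 : LinearMap.ker f ≤ Submodule.span F {(⟨z₁, hz₁⟩ : W)} := hcon2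
        have e5 := Submodule.finrank_mono e4
        have e6 : Module.finrank F (Submodule.span F {(⟨z₁, hz₁⟩ : W)}) ≤ 1 := by
          have := finrank_span_le_card (R := F) ({(⟨z₁, hz₁⟩ : W)} : Set W)
          simpa using this
        omega
      obtain ⟨k, hk, hk1⟩ := e3
      have hk' := LinearMap.mem_ker.1 hk
      refine ⟨k, k.2, ⟨?_, ?_⟩, ?_, ?_⟩
      · intro h0
        apply hk1
        have : k = 0 := Subtype.ext h0
        rw [this]
        exact Submodule.zero_mem _
      · intro h0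
        apply hk1
        have : k = ⟨z₁, hz₁⟩ := Subtype.ext h0
        rw [this]
        exact Submodule.mem_span_singleton_self _
      · have := congrFun hk' 0
        simpa [f] using this
      · have := congrFun hk' 1
        simpa [f] using this
    have hz₂Q := hcon' z₂ hz₂ hz₂1.1 b1 b2
    have hz₃Q := hcon' (z₁ + z₂) (W.add_mem hz₁ hz₂) (fun h0 => hz₂1.2 (by
        have h3 := eq_neg_of_add_eq_zero_right h0
        have h4 : (2 : F) • z₁ = 0 := by rw [h2, zero_smul]
        rw [h3]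
        rw [two_smul] at h4
        exact (eq_neg_of_add_eq_zero_left h4).symm))
      (by rw [polar_add_right, a1, b1, add_zero]) (by rw [polar_add_right, a2, b2, add_zero])
    have h12 : polar Q z₁ z₂ = 1 := by
      rw [Q_add, hz₁Q, hz₂Q] at hz₃Q
      linear_combination hz₃Q - h2
    refine hW (w₁ + z₁) (W.add_mem hw₁ hz₁) (w₂ + z₂) (W.add_mem hw₂ hz₂) ⟨?_, ?_, ?_, ?_⟩
    · rw [Q_add, q1, hz₁Q, a1]
      linear_combination h2
    · rw [Q_add, q2, hz₂Q, b2]
      linear_combination h2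
    · rw [polar_add_left, polar_add_right, polar_add_right, q12, h12, b1, polar_comm Q z₁ w₂, a2]
      linear_combination h2
    · rw [LinearIndependent.pair_iff]
      intro s t hst
      have c1 : polar Q w₂ (s • (w₁ + z₁) + t • (w₂ + z₂)) = 0 := by rw [hst, polar_zero_right]
      have c2 : polar Q w₁ (s • (w₁ + z₁) + t • (w₂ + z₂)) = 0 := by rw [hst, polar_zero_right]
      have c3 : polar Q w₁ w₁ = 0 := hself _
      have c4 : polar Q w₂ w₂ = 0 := hself _
      rw [polar_add_right, polar_smul_right, polar_smul_right, polar_add_right, polar_add_right,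
        polar_comm Q w₂ w₁, q12, a2, b2, c4] at c1
      rw [polar_add_right, polar_smul_right, polar_smul_right, polar_add_right, polar_add_right,
        q12, a1, b1, c3] at c2
      simp only [smul_eq_mul] at c1 c2
      exact ⟨by linear_combination c1, by linear_combination c2⟩
  -- the Siegel transformation `s = siegel z w₁` fixes `g l₁`
  have hs := (Split.SM_left (Q := Q) hz hw₁ hQz hz1).mem hQz hz1
  set s := siegel Q z w₁ hQz hz1 with hsdef
  have hsM : s ∈ M := S.hM hs
  have hzU : ∀ u ∈ U, polar Q z u = 0 := fun u hu => S.split.perp z hz u hu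
  have hwU : ∀ u ∈ U, polar Q w₁ u = 0 := fun u hu => S.split.perp w₁ hw₁ u hu
  have hsx : s (g l₁) = g l₁ := by
    rw [hsdef, siegel_apply, ← e₁, polar_add_right, hz1, hzU _ hu₁, polar_add_right, hwU _ hu₁, hself]
    simp
  have hm : g⁻¹ * s * g ∈ M := M.mul_mem (M.mul_mem (M.inv_mem hg) hsM) hg
  have hmx : (g⁻¹ * s * g) l₁ ∈ U := by
    show g⁻¹ (s (g l₁)) ∈ U
    rw [hsx, hgi]
    exact hl₁
  have h3 : g⁻¹ (s (g l₂)) ∈ U := map_le S hl₁ hl₂ hl hm hl₁ hl.left_ne hl.left hmx hl₂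
  have e : s (g l₂) = g l₂ - z := by
    rw [hsdef, siegel_apply, ← e₂, polar_add_right, hz2, hzU _ hu₂, polar_add_right, hwU _ hu₂, q12]
    module
  rw [e, map_sub, hgi] at h3
  have h4 : g⁻¹ z ∈ U := by
    have := U.sub_mem hl₂ h3
    rwa [sub_sub_cancel] at this
  refine not_perp_line S hW hg hv hgv h4 (fun h0 => hz0 ?_) (by rw [mem_O.1 ((O Q).inv_mem hgO)]; exact hQz)
    hl₁ hl₂ hl ?_ ?_
  · have := hgi' z
    rw [h0, map_zero] at this
    exact this.symm
  · rw [hgi', S.split.perp' hl₁ hz]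
  · rw [hgi', S.split.perp' hl₂ hz]

/-- **Maximality of the stabiliser of a nondegenerate 4-space of minus type, orthogonal to a 4-space of plus type,
over the field with two elements.** -/
theorem maximal [Finite F] [Module.Finite F V] (hF : ∀ c : F, c = 0 ∨ c = 1) (h : Split Q W U) (hG : Good Q)
    (hU4 : 4 ≤ Module.finrank F U) (hW4 : 4 ≤ Module.finrank F W)
    (hW : ∀ a ∈ W, ∀ c ∈ W, ¬ Line Q a c) {l₁ l₂ : V} (hl₁ : l₁ ∈ U) (hl₂ : l₂ ∈ U)
    (hl : Line Q l₁ l₂) :
    Cfsg.Geo.IsMaximalIn (E Q) (stab W ⊓ E Q) := by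
  have hQ := hG.nondeg
  refine ⟨lt_of_le_of_ne inf_le_right ?_, fun M hM hME => ?_⟩
  · -- properness
    intro heq
    have hW0 : W ≠ ⊥ := by
      rintro rfl
      rw [finrank_bot] at hW4
      omega
    obtain ⟨w, hw, hw0⟩ := Submodule.exists_mem_ne_zero_of_ne_bot hW0
    obtain ⟨w', hw', hww'⟩ := (h.ndOn_left hQ).exists_ne hw hw0
    have hxw : polar Q l₁ w = 0 := h.perp' hl₁ hw
    have hm : siegel Q l₁ w hl.left hxw ∈ stab W ⊓ E Q := by
      rw [heq]; exact siegel_mem_E _ _
    have h1 := (hm.1 w').1 hw'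
    rw [siegel_apply, h.perp' hl₁ hw'] at h1
    have h2 : polar Q w w' • l₁ ∈ W := by
      have h3 := W.sub_mem hw' h1
      have e : w' - (w' + (0 : F) • w - polar Q w w' • l₁ - (Q w * 0) • l₁) =
          polar Q w w' • l₁ := by module
      rwa [e] at h3
    have h3 : l₁ ∈ W := (W.smul_mem_iff hww').1 h2
    have h4 : l₁ ∈ W ⊓ U := ⟨h3, hl₁⟩
    rw [h.inf hQ, Submodule.mem_bot] at h4
    exact hl.left_ne h4
  · have hMO : M ≤ O Q := hME.trans E_le_O
    by_cases hT : ∀ (a w : V) (hQa : Q a = 0), a ∈ U → a ≠ 0 → w ∈ W → w ∈ T M Q a hQa → w = 0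
    · left
      have S : Setup Q W U M := ⟨h, hQ, hM, hMO, hU4, hT⟩
      refine le_antisymm (fun g hg => ⟨?_, hME hg⟩) hM
      refine (h.mem_stab_iff hQ (hMO hg)).2 (mem_stab_of_le ?_)
      intro v hv
      exact map_mem hF S hW4 hW hl₁ hl₂ hl hg hv
    · right
      push Not at hT
      obtain ⟨a, w, hQa, ha, ha0, hw, hwT, hw0⟩ := hT
      refine le_antisymm hME (E_le_of_mem_T' h hG hU4 ?_ hM hMO ha ha0 hQa hw hw0 hwT)
      rintro ⟨-, h2, -⟩
      omega

end Cfsg.Agent.H179.FourTwo
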