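import Cfsg.Agent.H179.G2Sym
import Cfsg.Agent.H875.PslRows

/-!
# Socle `PSL₂(q)` in dimension 7 in its own characteristic: an invariant alternating 3-form
-/

namespace Cfsg.Agent.H179.G2

open Cfsg Cfsg.Geo Matrix Cfsg.Agent.H915.LD Cfsg.Agent.H875.Fn Cfsg.Agent.H875.Psl2

universe u v w

variable {ι : Type} [Fintype ι] [DecidableEq ι] {F : Type u} [Field F] [Fintype F] {E : Type w}
  [Field E] [Fintype E] (p : ℕ) [hp : Fact p.Prime] [CharP E p] [CharP F p]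
  {H P : Subgroup (GL ι F)} {Q : (ι → F) → F}

include hp in
/-- `PSL₂(E)`, own characteristic, dimension 7: an invariant alternating 3-form -/
theorem l2_form (h2 : (2 : F) ≠ 0) (hQ : IsNondegenerateQuadraticForm Q) (hn : Fintype.card ι = 7)
    (hH : IsMaximalIn (omegaGL Q) H) (hc : IsResidualCore H P)
    (e : Soc P ≃* ProjectiveSpecialLinearGroup (Fin 2) E) :
    ∃ f : (ι → F) →ₗ[F] (ι → F) →ₗ[F] (ι → F) →ₗ[F] F, IsAltForm f ∧ f ≠ 0 ∧
      ∀ g ∈ P, ∀ x y z, f ((g : Matrix ι ι F) *ᵥ x) ((g : Matrix ι ι F) *ᵥ y)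
        ((g : Matrix ι ι F) *ᵥ z) = f x y z := by
  obtain ⟨hEF, -, h7⟩ := Cfsg.Agent.H875.PslRows.omega_seven p h2 hQ hn hH hc e
  obtain ⟨θ, J, t, c, Φ, hsurj, -, -, hcp, hc1, hM⟩ :=
    omega_single p h2 hQ (by omega) hH hc e hEF
  have hc6 : c = 6 := by omega
  subst hc6
  obtain ⟨f, hf, hf0, hinv⟩ := sextic_form p h7 (by rw [Module.finrank_fintype_fun_eq_card, hn]) hM
  refine ⟨f, hf, hf0, fun g hg x y z => ?_⟩
  obtain ⟨a, ha⟩ := hsurj ⟨g, hg⟩
  have h1 := hinv a x y z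
  have h3 : ∀ v, lin (P.subtype.comp θ) (RingHom.id F) a v = (g : Matrix ι ι F) *ᵥ v := by
    intro v
    rw [lin_apply']
    have h4 : (P.subtype.comp θ) a = g := by
      rw [MonoidHom.comp_apply, ha]; rfl
    rw [h4]
    congr 1
  rw [h3, h3, h3] at h1
  exact h1

end Cfsg.Agent.H179.G2
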