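import Cfsg.Agent.H926.NondegLow
import Cfsg.Agent.H926.MinusA
import Cfsg.Agent.H916.LowNondegGeo
import Cfsg.Agent.H888.SubfieldMax
import Cfsg.Agent.H179.FourTwo

/-!
Parts of the list of geometric maximal subgroups of `Ω₈⁻(q)`.
-/

set_option autoImplicit false

namespace Cfsg.Agent.H179.Om8

open QuadraticMap Cfsg.Geo
open Cfsg.Agent.LieClassical.OrthCore Cfsg.Agent.LieClassical.OrthTrans
  Cfsg.Agent.LieClassical.OrthFinite Cfsg.Agent.LieClassical.OrthSimple Cfsg.Agent.H885.RootT
  Cfsg.Agent.H885.Irr Cfsg.Agent.H885.Nondeg Cfsg.Agent.H885.NondegGeo Cfsg.Agent.H883.Bridge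
  Cfsg.Agent.H916.LowNondeg Cfsg.Agent.H179.FourTwo

variable {F : Type*} [Field F] [Fintype F]

theorem part1 {Q : (Fin 8 → F) → F} (hQ : IsNondegenerateQuadraticForm Q) (hminus : ¬ IsPlusTypeOn Q ⊤)
    (W : Submodule F (Fin 8 → F)) (hW0 : W ≠ ⊥) (hW : IsTotallySingularQuad Q W) :
    IsMaximalIn (omegaGL Q) (subspaceStabilizer W ⊓ omegaGL Q) :=
  Cfsg.Agent.H926.NondegLow.singular_minus (by norm_num) (by decide) Q hQ hminus W hW0 hW

theorem part2 {Q : (Fin 8 → F) → F} (hQ : IsNondegenerateQuadraticForm Q) (hq : Odd (Fintype.card F))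
    (W : Submodule F (Fin 8 → F)) (hW0 : W ≠ ⊥) (hW1 : W ≠ ⊤) (ho : Odd (Module.finrank F W))
    (hW : IsNondegenerateOn (QuadraticMap.polar Q) W) :
    IsMaximalIn (omegaGL Q) (subspaceStabilizer W ⊓ omegaGL Q) := by
  refine Cfsg.Agent.H916.LowNondegGeo.subspaceStabilizer_nondegenerate_maximal_low hQ (by simp) ?_ W hW0 hW1 hW
    ?_ ?_
  · have h1 := Fintype.one_lt_card (α := F)
    obtain ⟨k, hk⟩ := hq
    omega
  · rintro ⟨-, U, hU, -, -, h⟩
    obtain ⟨k, hk⟩ := ho
    rcases h with rfl | ⟨-, h⟩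
    · omega
    · rw [Fintype.card_fin] at h
      omega
  · obtain ⟨k, hk⟩ := ho
    rw [Fintype.card_fin]
    omega

/-- Nondegenerate 2-spaces, except hyperbolic planes over a field with two or three elements. -/
theorem part34 {Q : (Fin 8 → F) → F} (hQ : IsNondegenerateQuadraticForm Q)
    (W : Submodule F (Fin 8 → F)) (h2 : Module.finrank F W = 2)
    (hW : IsNondegenerateOn (QuadraticMap.polar Q) W) (hex : ¬ (Fintype.card F ≤ 3 ∧ IsPlusTypeOn Q W)) :
    IsMaximalIn (omegaGL Q) (subspaceStabilizer W ⊓ omegaGL Q) := by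
  refine subspaceStabilizer_maximal hQ (by simp) W fun Q' hQ' hG => ?_
  subst hQ'
  have hs := split_perp (ndOn_of_geo hW)
  have hfr := hs.finrank hG.nondeg
  rw [Module.finrank_fintype_fun_eq_card, Fintype.card_fin, h2] at hfr
  refine hs.maximal hG.nondeg (by omega) (by omega) ?_ ?_ ?_
  · rintro rfl
    simp at h2
  · rintro ⟨h3, -, x, hx, hx0, hQx⟩
    rw [Nat.card_eq_fintype_card] at h3
    exact hex ⟨h3, plusType_of_sing h2 hx hx0 hQx⟩
  · intro g _ heq
    have h1 := LinearEquiv.finrank_map_eq g (perp Q' W)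
    rw [heq] at h1
    omega

theorem part6 {Q : (Fin 8 → F) → F} (hQ : IsNondegenerateQuadraticForm Q) (hchar : ¬ Odd (Fintype.card F))
    (v : Fin 8 → F) (hv : Q v ≠ 0) :
    IsMaximalIn (omegaGL Q) (subspaceStabilizer (Submodule.span F {v}) ⊓ omegaGL Q) :=
  Cfsg.Agent.H926.NondegLow.nonsingular_vector (by simp) Q hQ hchar v hv

theorem part8 {Q : (Fin 8 → F) → F} (hQ : IsNondegenerateQuadraticForm Q) (F₀ : Subfield F) (r : ℕ)
    (P : Matrix.GeneralLinearGroup (Fin 8) F) (ζ : F) (hr : r.Prime)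
    (hcard : Fintype.card F = Nat.card F₀ ^ r) (hζ : ζ ≠ 0)
    (hP : IsQuadFormRationalStructure (fun v : Fin 8 → F => ζ * Q v) F₀ P) :
    IsMaximalIn (omegaGL Q) (subfieldSubgroup F₀ P ⊓ omegaGL Q) :=
  Cfsg.Agent.H888.SubfieldMax.subfield_maximal (by simp) Q hQ F₀ r hr hcard P ζ hζ hP

/-! ### Nondegenerate 4-spaces -/

variable {Q : QuadraticForm F (Fin 8 → F)} {W U : Submodule F (Fin 8 → F)}

/-- Isometric complementary halves force plus type. -/
theorem plus_of_map_eq (hQ : IsNondegenerateQuadraticForm Q) (hs : Split Q W U) (hnd : Nondeg Q)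
    (h4 : Module.finrank F W = 4) {g : (Fin 8 → F) ≃ₗ[F] (Fin 8 → F)} (hg : g ∈ O Q)
    (heq : U.map (g : (Fin 8 → F) →ₗ[F] (Fin 8 → F)) = W) : IsPlusTypeOn Q ⊤ := by
  classical
  have hfr := hs.finrank hnd
  rw [Module.finrank_fintype_fun_eq_card, Fintype.card_fin, h4] at hfr
  have hU4 : Module.finrank F U = 4 := by omega
  by_cases h2 : (2 : F) = 0
  · -- the graph
    let L : U →ₗ[F] (Fin 8 → F) := U.subtype + (g : (Fin 8 → F) →ₗ[F] (Fin 8 → F)) ∘ₗ U.subtype
    have hL : ∀ u : U, L u = (u : Fin 8 → F) + g (u : Fin 8 → F) := fun u => rfl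
    have hgW : ∀ u : U, g (u : Fin 8 → F) ∈ W := fun u => by
      rw [← heq]
      exact ⟨u, u.2, rfl⟩
    have hinj : Function.Injective L := by
      rw [← LinearMap.ker_eq_bot, eq_bot_iff]
      intro u hu
      rw [LinearMap.mem_ker, hL] at hu
      have h1 : (u : Fin 8 → F) ∈ W ⊓ U := by
        refine ⟨?_, u.2⟩
        rw [eq_neg_of_add_eq_zero_left hu]
        exact W.neg_mem (hgW u)
      rw [hs.inf hnd, Submodule.mem_bot] at h1
      exact (Submodule.mem_bot F).2 (Subtype.ext h1)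
    refine ⟨LinearMap.range L, le_top, ?_, ?_⟩
    · rintro _ ⟨u, rfl⟩
      rw [hL, Q_add, mem_O.1 hg, hs.perp' u.2 (hgW u), add_zero, ← two_mul, h2, zero_mul]
    · rw [LinearMap.finrank_range_of_inj hinj, hU4, finrank_top, Module.finrank_fintype_fun_eq_card,
        Fintype.card_fin]
  · -- determinants
    let D : Fin 2 → Submodule F (Fin 8 → F) := ![W, U]
    let e : U ≃ₗ[F] W := (g.submoduleMap U).trans (LinearEquiv.ofEq _ _ heq)
    have he : ∀ u : U, ((e u : W) : Fin 8 → F) = g (u : Fin 8 → F) := fun u => rfl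
    have hUW : AreIsometricFor Q U W := ⟨e, fun u => by rw [he, mem_O.1 hg]⟩
    have hWU : AreIsometricFor Q W U := ⟨e.symm, fun w => by
      have h1 := he (e.symm w)
      rw [LinearEquiv.apply_symm_apply] at h1
      rw [h1, mem_O.1 hg]⟩
    have hdis : Disjoint W U := disjoint_iff.2 (hs.inf hnd)
    have hD : IsOrthogonalMDecomposition Q 4 D := by
      refine ⟨⟨⟨le_rfl, by norm_num, ?_, ?_, ?_⟩, ?_, ?_⟩, ?_⟩
      · intro i
        fin_cases i
        · exact h4
        · exact hU4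
      · rw [iSupIndep_pair (i := (0 : Fin 2)) (j := 1) (by decide) (by decide)]
        exact hdis
      · rw [eq_top_iff, ← hs.sup]
        exact sup_le (le_iSup D 0) (le_iSup D 1)
      · intro i
        fin_cases i
        · exact geo_of_ndOn (hs.ndOn_left hnd)
        · exact geo_of_ndOn (hs.ndOn_right hnd)
      · intro i j hij
        fin_cases i <;> fin_cases j
        · exact absurd rfl hij
        · exact fun u hu v hv => hs.perp u hu v hv
        · exact fun u hu v hv => hs.perp' hu hv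
        · exact absurd rfl hij
      · intro i j
        fin_cases i <;> fin_cases j
        · exact ⟨LinearEquiv.refl _ _, fun _ => rfl⟩
        · exact hWU
        · exact hUW
        · exact ⟨LinearEquiv.refl _ _, fun _ => rfl⟩
    obtain ⟨B, hB⟩ := H925.det_isometric hQ hD 0 (Module.finBasisOfFinrankEq F (D 0) h4)
    refine Cfsg.Agent.H926.plus_of_det hQ h2 (m := 4) (by simp) B
      (s := (LinearMap.BilinForm.toMatrix (Module.finBasisOfFinrankEq F (D 0) h4)
        (Cfsg.Agent.H922.resBilin hQ.polar_bilinear (D 0))).det) ?_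
    rw [hB]
    ring

omit [Fintype F] in
/-- Four independent pairwise orthogonal singular vectors. -/
theorem plus_of_four {v : Fin 4 → (Fin 8 → F)} (hv : LinearIndependent F v) (h0 : ∀ i, Q (v i) = 0)
    (h1 : ∀ i j, i < j → polar Q (v i) (v j) = 0) : IsPlusTypeOn Q ⊤ := by
  refine ⟨Submodule.span F (Set.range v), le_top, ?_, ?_⟩
  · intro u hu
    obtain ⟨x, rfl⟩ := (Submodule.mem_span_range_iff_exists_fun F).1 hu
    rw [Fin.sum_univ_four, Q_add, Q_add, Q_add, QuadraticMap.map_smul, QuadraticMap.map_smul,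
      QuadraticMap.map_smul, QuadraticMap.map_smul, h0, h0, h0, h0]
    simp only [polar_add_left, polar_smul_left, polar_smul_right]
    rw [h1 0 1 (by decide), h1 0 2 (by decide), h1 0 3 (by decide), h1 1 2 (by decide), h1 1 3 (by decide),
      h1 2 3 (by decide)]
    simp
  · rw [finrank_span_eq_card hv, finrank_top, Module.finrank_fintype_fun_eq_card, Fintype.card_fin,
      Fintype.card_fin]

omit [Fintype F] in
/-- Two orthogonal totally singular lines. -/
theorem plus_of_lines (hs : Split Q W U) (hnd : Nondeg Q) {a b c d : Fin 8 → F} (ha : a ∈ W) (hb : b ∈ W)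
    (hc : c ∈ U) (hd : d ∈ U) (hab : Line Q a b) (hcd : Line Q c d) : IsPlusTypeOn Q ⊤ := by
  refine plus_of_four (v := ![a, b, c, d]) ?_ ?_ ?_
  · rw [Fintype.linearIndependent_iff]
    intro k hk
    rw [Fin.sum_univ_four] at hk
    have e : k 0 • a + k 1 • b = -(k 2 • c + k 3 • d) := by
      apply eq_neg_of_add_eq_zero_left
      rw [← hk]
      simp only [Matrix.cons_val]
      abel
    have h1 : k 0 • a + k 1 • b ∈ W ⊓ U := by
      refine ⟨W.add_mem (W.smul_mem _ ha) (W.smul_mem _ hb), ?_⟩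
      rw [e]
      exact U.neg_mem (U.add_mem (U.smul_mem _ hc) (U.smul_mem _ hd))
    rw [hs.inf hnd, Submodule.mem_bot] at h1
    have h2 := LinearIndependent.pair_iff.1 hab.indep _ _ h1
    rw [h1, eq_comm, neg_eq_zero] at e
    have h3 := LinearIndependent.pair_iff.1 hcd.indep _ _ e
    intro i
    fin_cases i
    · exact h2.1
    · exact h2.2
    · exact h3.1
    · exact h3.2
  · intro i
    fin_cases i
    · exact hab.left
    · exact hab.right
    · exact hcd.left
    · exact hcd.right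
  · intro i j hij
    fin_cases i <;> fin_cases j <;> first | exact absurd hij (by decide) | skip
    · exact hab.perp
    · exact hs.perp a ha c hc
    · exact hs.perp a ha d hd
    · exact hs.perp b hb c hc
    · exact hs.perp b hb d hd
    · exact hcd.perp

/-- A nondegenerate 4-space without totally singular lines over the field with two elements. -/
theorem exists_aniso (hF : ∀ c : F, c = 0 ∨ c = 1) (hW : NdOn Q W) (h4 : 4 ≤ Module.finrank F W)
    (hno : ∀ a ∈ W, ∀ c ∈ W, ¬ Line Q a c) : ∃ w ∈ W, ∃ k₁ ∈ W, ∃ k₂ ∈ W, w ≠ 0 ∧ Q w = 0 ∧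
      polar Q w k₁ = 0 ∧ polar Q w k₂ = 0 ∧ Q k₁ = 1 ∧ Q k₂ = 1 ∧ polar Q k₁ k₂ = 1 := by
  have h2 : (2 : F) = 0 := by
    rcases hF 2 with h | h
    · exact h
    · exfalso
      have : (1 : F) + 1 = 1 := by rw [one_add_one_eq_two]; exact h
      simp at this
  obtain ⟨w, hw, hw0, hQw, -⟩ := exists_sing_mem_perp (Q := Q) ![(0 : Fin 8 → F)] W (by omega)
  obtain ⟨w', hw', hyp⟩ := exists_partner hW hw hw0 hQw
  have hK := ndOn_cpIn hW hw hw' hyp
  have hfr := finrank_cpIn (Q := Q) W w w'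
  have hsing : ∀ k ∈ cpIn Q W w w', k ≠ 0 → Q k = 1 := by
    intro k hk hk0
    obtain ⟨hkW, h1, h1'⟩ := mem_cpIn.1 hk
    refine (hF _).resolve_left fun hQk => hno w hw k hkW ⟨hQw, hQk, h1, ?_⟩
    rw [LinearIndependent.pair_iff]
    intro s t hst
    have hs : s = 0 := by
      have h3 : polar Q w' (s • w + t • k) = 0 := by rw [hst, polar_zero_right]
      rw [polar_add_right, polar_smul_right, polar_smul_right, hyp.pair', h1'] at h3
      simpa using h3
    refine ⟨hs, ?_⟩
    rw [hs, zero_smul, zero_add] at hst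
    exact (smul_eq_zero.1 hst).resolve_right hk0
  obtain ⟨k₁, hk₁, hk₁0⟩ := Submodule.exists_mem_ne_zero_of_ne_bot
    (show cpIn Q W w w' ≠ ⊥ by
      intro h0
      rw [h0, finrank_bot] at hfr
      omega)
  obtain ⟨k₂, hk₂, hk₁₂⟩ := hK.exists_ne hk₁ hk₁0
  have hk₂0 : k₂ ≠ 0 := by
    rintro rfl
    exact hk₁₂ (polar_zero_right _ _)
  exact ⟨w, hw, k₁, (mem_cpIn.1 hk₁).1, k₂, (mem_cpIn.1 hk₂).1, hw0, hQw, (mem_cpIn.1 hk₁).2.1,
    (mem_cpIn.1 hk₂).2.1, hsing k₁ hk₁ hk₁0, hsing k₂ hk₂ hk₂0, (hF _).resolve_left hk₁₂⟩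

/-- Over the field with two elements, two complementary 4-spaces without totally singular lines force plus
type. -/
theorem plus_of_no_lines (hF : ∀ c : F, c = 0 ∨ c = 1) (hs : Split Q W U) (hnd : Nondeg Q)
    (hW4 : 4 ≤ Module.finrank F W) (hU4 : 4 ≤ Module.finrank F U)
    (hW : ∀ a ∈ W, ∀ c ∈ W, ¬ Line Q a c) (hU : ∀ a ∈ U, ∀ c ∈ U, ¬ Line Q a c) : IsPlusTypeOn Q ⊤ := by
  have h2 : (2 : F) = 0 := by
    rcases hF 2 with h | h
    · exact h
    · exfalso
      have : (1 : F) + 1 = 1 := by rw [one_add_one_eq_two]; exact h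
      simp at this
  obtain ⟨w, hw, k₁, hk₁, k₂, hk₂, hw0, hQw, a1, a2, a3, a4, a5⟩ :=
    exists_aniso hF (hs.ndOn_left hnd) hW4 hW
  obtain ⟨u, hu, l₁, hl₁, l₂, hl₂, hu0, hQu, b1, b2, b3, b4, b5⟩ :=
    exists_aniso hF (hs.ndOn_right hnd) hU4 hU
  refine plus_of_four (v := ![w, u, k₁ + l₁, k₂ + l₂]) ?_ ?_ ?_
  · rw [Fintype.linearIndependent_iff]
    intro k hk
    rw [Fin.sum_univ_four] at hk
    have e : k 0 • w + k 2 • k₁ + k 3 • k₂ = -(k 1 • u + k 2 • l₁ + k 3 • l₂) := by
      apply eq_neg_of_add_eq_zero_left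
      rw [← hk]
      simp only [Matrix.cons_val, smul_add]
      abel
    have h1 : k 0 • w + k 2 • k₁ + k 3 • k₂ ∈ W ⊓ U := by
      refine ⟨W.add_mem (W.add_mem (W.smul_mem _ hw) (W.smul_mem _ hk₁)) (W.smul_mem _ hk₂), ?_⟩
      rw [e]
      exact U.neg_mem (U.add_mem (U.add_mem (U.smul_mem _ hu) (U.smul_mem _ hl₁)) (U.smul_mem _ hl₂))
    rw [hs.inf hnd, Submodule.mem_bot] at h1
    rw [h1, eq_comm, neg_eq_zero] at e
    have hself : ∀ v : Fin 8 → F, polar Q v v = 0 := fun v => by
      rw [polar_self, two_smul, ← two_mul, h2, zero_mul]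
    have c3 : k 3 = 0 := by
      have h3 : polar Q k₁ (k 0 • w + k 2 • k₁ + k 3 • k₂) = 0 := by rw [h1, polar_zero_right]
      rw [polar_add_right, polar_add_right, polar_smul_right, polar_smul_right, polar_smul_right,
        polar_comm Q k₁ w, a1, hself, a5] at h3
      simpa using h3
    have c2 : k 2 = 0 := by
      have h3 : polar Q k₂ (k 0 • w + k 2 • k₁ + k 3 • k₂) = 0 := by rw [h1, polar_zero_right]
      rw [polar_add_right, polar_add_right, polar_smul_right, polar_smul_right, polar_smul_right,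
        polar_comm Q k₂ w, a2, hself, polar_comm Q k₂ k₁, a5] at h3
      simpa using h3
    rw [c2, c3, zero_smul, zero_smul, add_zero, add_zero] at h1 e
    have c0 := (smul_eq_zero.1 h1).resolve_right hw0
    have c1 := (smul_eq_zero.1 e).resolve_right hu0
    intro i
    fin_cases i
    · exact c0
    · exact c1
    · exact c2
    · exact c3
  · have hq : ∀ k ∈ W, ∀ l ∈ U, Q k = 1 → Q l = 1 → Q (k + l) = 0 := by
      intro k hk l hl h3 h4
      rw [Q_add, h3, h4, hs.perp k hk l hl]
      linear_combination h2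
    intro i
    fin_cases i
    · exact hQw
    · exact hQu
    · exact hq _ hk₁ _ hl₁ a3 b3
    · exact hq _ hk₂ _ hl₂ a4 b4
  · intro i j hij
    fin_cases i <;> fin_cases j <;> first | exact absurd hij (by decide) | skip
    · exact hs.perp w hw u hu
    · show polar Q w (k₁ + l₁) = 0
      rw [polar_add_right, a1, hs.perp w hw l₁ hl₁, add_zero]
    · show polar Q w (k₂ + l₂) = 0
      rw [polar_add_right, a2, hs.perp w hw l₂ hl₂, add_zero]
    · show polar Q u (k₁ + l₁) = 0
      rw [polar_add_right, b1, hs.perp' hu hk₁, add_zero]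
    · show polar Q u (k₂ + l₂) = 0
      rw [polar_add_right, b2, hs.perp' hu hk₂, add_zero]
    · show polar Q (k₁ + l₁) (k₂ + l₂) = 0
      rw [polar_add_left, polar_add_right, polar_add_right, a5, b5, hs.perp k₁ hk₁ l₂ hl₂,
        hs.perp' hl₁ hk₂]
      linear_combination h2

/-- **Nondegenerate 4-spaces** of an 8-dimensional space of minus type. -/
theorem part5 {Q : (Fin 8 → F) → F} (hQ : IsNondegenerateQuadraticForm Q) (hminus : ¬ IsPlusTypeOn Q ⊤)
    (W : Submodule F (Fin 8 → F)) (h4 : Module.finrank F W = 4)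
    (hW : IsNondegenerateOn (QuadraticMap.polar Q) W) :
    IsMaximalIn (omegaGL Q) (subspaceStabilizer W ⊓ omegaGL Q) := by
  have hW0 : W ≠ ⊥ := by
    rintro rfl
    simp at h4
  have hW1 : W ≠ ⊤ := by
    rintro rfl
    simp at h4
  by_cases hF : 3 ≤ Fintype.card F
  · refine Cfsg.Agent.H916.LowNondegGeo.subspaceStabilizer_nondegenerate_maximal_seven hQ (by simp) hF W hW0 hW1
      hW ?_ ?_
    · rintro ⟨-, U, hU, -, -, rfl | ⟨-, h⟩⟩
      · omega
      · rw [Fintype.card_fin] at h
        omega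
    · intro Q' hQ' hnd U hs g hg heq
      subst hQ'
      exact hminus (plus_of_map_eq hQ hs hnd h4 hg heq)
  · have h2 : Fintype.card F = 2 := by
      have := Fintype.one_lt_card (α := F)
      omega
    have hF : ∀ c : F, c = 0 ∨ c = 1 := by
      classical
      intro c
      by_contra hcon
      push Not at hcon
      have h1 : ({0, 1, c} : Finset F).card = 3 := by
        rw [Finset.card_insert_of_notMem, Finset.card_insert_of_notMem, Finset.card_singleton]
        · rw [Finset.mem_singleton]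
          exact fun h => hcon.2 h.symm
        · rw [Finset.mem_insert, Finset.mem_singleton]
          push Not
          exact ⟨zero_ne_one, fun h => hcon.1 h.symm⟩
      have h3 := Finset.card_le_univ ({0, 1, c} : Finset F)
      omega
    refine subspaceStabilizer_maximal hQ (by simp) W fun Q' hQ' hG => ?_
    subst hQ'
    have hs := split_perp (ndOn_of_geo hW)
    have hfr := hs.finrank hG.nondeg
    rw [Module.finrank_fintype_fun_eq_card, Fintype.card_fin, h4] at hfr
    by_cases hWl : ∃ a ∈ W, ∃ c ∈ W, Line Q' a c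
    · obtain ⟨a, ha, c, hc, hac⟩ := hWl
      rw [hs.stab_inf_E hG.nondeg]
      refine FourTwo.maximal hF hs.symm hG (by omega) (by omega) ?_ ha hc hac
      intro b hb d hd hbd
      exact hminus (plus_of_lines hs hG.nondeg ha hc hb hd hac hbd)
    · push Not at hWl
      by_cases hUl : ∃ a ∈ perp Q' W, ∃ c ∈ perp Q' W, Line Q' a c
      · obtain ⟨a, ha, c, hc, hac⟩ := hUl
        exact FourTwo.maximal hF hs hG (by omega) (by omega) hWl ha hc hac
      · push Not at hUl
        exact absurd (plus_of_no_lines hF hs hG.nondeg (by omega) (by omega) hWl hUl) hminus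

end Cfsg.Agent.H179.Om8
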